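set_option autoImplicit false

namespace Cfsg.Agent.Lib.OverLat.V16.Amb

/-- The generators of the ambient group `GL₄(2)`. -/
def gA : List Nat := [nat_lit 0xcb8f9eda61253470, nat_lit 0xb27ed4183af65c90]

/-- The generators of the subgroup of order 2520. -/
def TA : List Nat := [nat_lit 0xbd17f9538e24ca60, nat_lit 0x4fa17c926d835eb0]

end Cfsg.Agent.Lib.OverLat.V16.Amb
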