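import Cfsg.Agent.Lib.OverLat.A8.Common
import Cfsg.Agent.Lib.OverLat.V16.Amb

/-!
# The overgroups of a subgroup of order 7 in `GL₄(2)`, acting on the 16 vectors

`Pc T`: a subgroup of order 2520 containing the group of `T` is the group of `TA7`.
-/

set_option autoImplicit false
set_option linter.unusedSectionVars false

namespace Cfsg.Agent.Lib.OverLat.V16.Common

open Cfsg.Agent.Lib.PermComp.Core Cfsg.Agent.Lib.PermComp.Chain Cfsg.Agent.Lib.OverLat.Core
open Cfsg.Agent.Lib.OverLat.Basic Cfsg.Agent.Lib.OverLat.A8.Common Subgroup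

/-- The code of the identity on the 16 vectors. -/
def idc16 : Nat := 0xfedcba9876543210

/-- The vectors. -/
abbrev V4 := Fin 4 → ZMod 2

/-- The group generated by the codes. -/
abbrev HV (T : List Nat) : Subgroup (Equiv.Perm V4) := H 4 15 (eV 4) T

theorem hm16 : (15 : Nat) = 2 ^ 4 - 1 := rfl
theorem hn16 : (2 ^ 4 : Nat) = 2 ^ 4 := rfl
theorem hid16 : ∀ i < 2 ^ 4, app 4 15 idc16 i = i := by decide +kernel

/-- The statement proved for each node. -/
def Pc (gA TA T : List Nat) : Prop :=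
  ∀ X : Subgroup (Equiv.Perm V4), HV T ≤ X → X ≤ HV gA → Nat.card X = 2520 → X = HV TA

theorem reps_of_valid16 {T : List Nat} (h : allL (validC (2 ^ 4) 4 15 idc16) T = true) :
    ∀ c ∈ T, ∃ g : Equiv.Perm V4, Rep 4 15 (eV 4) c g := fun c hc =>
  exists_rep_of_valid hm16 hid16 ((allL_eq_true _ _).mp h c hc)

/-- A node. -/
theorem pc_of_step {gA TA T : List Nat} {prog : List (Nat × Nat × Nat)} {ls : List Lev}
    {targets : List (List Nat)} {C : StepCert}
    (hv : allL (validC (2 ^ 4) 4 15 idc16) T = true)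
    (hc : checkAll (2 ^ 4) 4 15 64 0xffffffffffffffff idc16 T prog ls = true)
    (hs : stepCheck (2 ^ 4) 4 15 64 0xffffffffffffffff idc16 ls targets T C = true)
    (hA : C.tabsA.map (·.1) = gA)
    (hself : Nat.card (HV T) = 2520 → HV T = HV TA)
    (hnext : ∀ t ∈ targets, Pc gA TA t) : Pc gA TA T := by
  intro X h1 h2 hE
  obtain ⟨-, -, -, hsem, hTeq, -⟩ := main_of_checkAll (e := eV 4) (reps_of_valid16 hv) hc
  rw [← hA] at h2
  rcases step hn16 hm16 hid16 hsem hTeq (reps_of_valid16 hv) hs X h1 h2 with rfl | ⟨t, ht, hle⟩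
  · exact hself hE
  · exact hnext t ht X hle (hA ▸ h2) hE

/-- Order of a node. -/
theorem card_of_check {T : List Nat} {prog : List (Nat × Nat × Nat)} {ls : List Lev}
    (hv : allL (validC (2 ^ 4) 4 15 idc16) T = true)
    (hc : checkAll (2 ^ 4) 4 15 64 0xffffffffffffffff idc16 T prog ls = true) :
    Nat.card (HV T) = orderC ls := by
  obtain ⟨-, -, -, -, -, h⟩ := main_of_checkAll (e := eV 4) (reps_of_valid16 hv) hc
  exact h

end Cfsg.Agent.Lib.OverLat.V16.Common
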